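import Cfsg.Agent.H29.CosetCert.SuzU.RelsBase

/-! Relator checks for SuzU, produced outside Lean and checked here. -/

set_option autoImplicit false
set_option maxRecDepth 16000
set_option Elab.async false

namespace H29.CosetCert.SuzUData

open H29.CosetCert

theorem relsF28 : allF (fixF rowF relW) 4200 150 = true := by decide +kernel

theorem relsF29 : allF (fixF rowF relW) 4350 150 = true := by decide +kernel

theorem relsF30 : allF (fixF rowF relW) 4500 150 = true := by decide +kernel

theorem relsF31 : allF (fixF rowF relW) 4650 150 = true := by decide +kernel

theorem relsF32 : allF (fixF rowF relW) 4800 150 = true := by decide +kernel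

theorem relsF33 : allF (fixF rowF relW) 4950 150 = true := by decide +kernel

theorem relsF34 : allF (fixF rowF relW) 5100 150 = true := by decide +kernel

theorem relsF35 : allF (fixF rowF relW) 5250 150 = true := by decide +kernel

theorem relsF36 : allF (fixF rowF relW) 5400 150 = true := by decide +kernel

theorem relsF37 : allF (fixF rowF relW) 5550 150 = true := by decide +kernel

theorem relsF38 : allF (fixF rowF relW) 5700 150 = true := by decide +kernel

theorem relsF39 : allF (fixF rowF relW) 5850 150 = true := by decide +kernel

theorem relsF40 : allF (fixF rowF relW) 6000 150 = true := by decide +kernel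

theorem relsF41 : allF (fixF rowF relW) 6150 150 = true := by decide +kernel

theorem relsB2 (c : ℕ) (h0 : 4200 ≤ c) (h1 : c < 6300) : fixF rowF relW c = true := by
  by_cases h28 : c < 4350
  · exact allF_spec _ _ _ relsF28 c (by omega) (by omega)
  by_cases h29 : c < 4500
  · exact allF_spec _ _ _ relsF29 c (by omega) (by omega)
  by_cases h30 : c < 4650
  · exact allF_spec _ _ _ relsF30 c (by omega) (by omega)
  by_cases h31 : c < 4800
  · exact allF_spec _ _ _ relsF31 c (by omega) (by omega)
  by_cases h32 : c < 4950
  · exact allF_spec _ _ _ relsF32 c (by omega) (by omega)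
  by_cases h33 : c < 5100
  · exact allF_spec _ _ _ relsF33 c (by omega) (by omega)
  by_cases h34 : c < 5250
  · exact allF_spec _ _ _ relsF34 c (by omega) (by omega)
  by_cases h35 : c < 5400
  · exact allF_spec _ _ _ relsF35 c (by omega) (by omega)
  by_cases h36 : c < 5550
  · exact allF_spec _ _ _ relsF36 c (by omega) (by omega)
  by_cases h37 : c < 5700
  · exact allF_spec _ _ _ relsF37 c (by omega) (by omega)
  by_cases h38 : c < 5850
  · exact allF_spec _ _ _ relsF38 c (by omega) (by omega)
  by_cases h39 : c < 6000
  · exact allF_spec _ _ _ relsF39 c (by omega) (by omega)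
  by_cases h40 : c < 6150
  · exact allF_spec _ _ _ relsF40 c (by omega) (by omega)
  by_cases h41 : c < 6300
  · exact allF_spec _ _ _ relsF41 c (by omega) (by omega)
  omega

end H29.CosetCert.SuzUData
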