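import Cfsg.Agent.H29.CosetCert.SuzU.RelsBase

/-! Relator checks for SuzU, produced outside Lean and checked here. -/

set_option autoImplicit false
set_option maxRecDepth 16000
set_option Elab.async false

namespace H29.CosetCert.SuzUData

open H29.CosetCert

theorem relsF42 : allF (fixF rowF relW) 6300 150 = true := by decide +kernel

theorem relsF43 : allF (fixF rowF relW) 6450 150 = true := by decide +kernel

theorem relsF44 : allF (fixF rowF relW) 6600 150 = true := by decide +kernel

theorem relsF45 : allF (fixF rowF relW) 6750 150 = true := by decide +kernel

theorem relsF46 : allF (fixF rowF relW) 6900 150 = true := by decide +kernel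

theorem relsF47 : allF (fixF rowF relW) 7050 150 = true := by decide +kernel

theorem relsF48 : allF (fixF rowF relW) 7200 150 = true := by decide +kernel

theorem relsF49 : allF (fixF rowF relW) 7350 150 = true := by decide +kernel

theorem relsF50 : allF (fixF rowF relW) 7500 150 = true := by decide +kernel

theorem relsF51 : allF (fixF rowF relW) 7650 150 = true := by decide +kernel

theorem relsF52 : allF (fixF rowF relW) 7800 150 = true := by decide +kernel

theorem relsF53 : allF (fixF rowF relW) 7950 150 = true := by decide +kernel

theorem relsF54 : allF (fixF rowF relW) 8100 150 = true := by decide +kernel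

theorem relsF55 : allF (fixF rowF relW) 8250 150 = true := by decide +kernel

theorem relsB3 (c : ℕ) (h0 : 6300 ≤ c) (h1 : c < 8400) : fixF rowF relW c = true := by
  by_cases h42 : c < 6450
  · exact allF_spec _ _ _ relsF42 c (by omega) (by omega)
  by_cases h43 : c < 6600
  · exact allF_spec _ _ _ relsF43 c (by omega) (by omega)
  by_cases h44 : c < 6750
  · exact allF_spec _ _ _ relsF44 c (by omega) (by omega)
  by_cases h45 : c < 6900
  · exact allF_spec _ _ _ relsF45 c (by omega) (by omega)
  by_cases h46 : c < 7050
  · exact allF_spec _ _ _ relsF46 c (by omega) (by omega)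
  by_cases h47 : c < 7200
  · exact allF_spec _ _ _ relsF47 c (by omega) (by omega)
  by_cases h48 : c < 7350
  · exact allF_spec _ _ _ relsF48 c (by omega) (by omega)
  by_cases h49 : c < 7500
  · exact allF_spec _ _ _ relsF49 c (by omega) (by omega)
  by_cases h50 : c < 7650
  · exact allF_spec _ _ _ relsF50 c (by omega) (by omega)
  by_cases h51 : c < 7800
  · exact allF_spec _ _ _ relsF51 c (by omega) (by omega)
  by_cases h52 : c < 7950
  · exact allF_spec _ _ _ relsF52 c (by omega) (by omega)
  by_cases h53 : c < 8100
  · exact allF_spec _ _ _ relsF53 c (by omega) (by omega)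
  by_cases h54 : c < 8250
  · exact allF_spec _ _ _ relsF54 c (by omega) (by omega)
  by_cases h55 : c < 8400
  · exact allF_spec _ _ _ relsF55 c (by omega) (by omega)
  omega

end H29.CosetCert.SuzUData
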