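import Cfsg.Agent.H29.CosetCert.SuzU.RelsBase

/-! Relator checks for SuzU, produced outside Lean and checked here. -/

set_option autoImplicit false
set_option maxRecDepth 16000
set_option Elab.async false

namespace H29.CosetCert.SuzUData

open H29.CosetCert

theorem relsF70 : allF (fixF rowF relW) 10500 150 = true := by decide +kernel

theorem relsF71 : allF (fixF rowF relW) 10650 150 = true := by decide +kernel

theorem relsF72 : allF (fixF rowF relW) 10800 150 = true := by decide +kernel

theorem relsF73 : allF (fixF rowF relW) 10950 150 = true := by decide +kernel

theorem relsF74 : allF (fixF rowF relW) 11100 150 = true := by decide +kernel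

theorem relsF75 : allF (fixF rowF relW) 11250 150 = true := by decide +kernel

theorem relsF76 : allF (fixF rowF relW) 11400 150 = true := by decide +kernel

theorem relsF77 : allF (fixF rowF relW) 11550 150 = true := by decide +kernel

theorem relsF78 : allF (fixF rowF relW) 11700 150 = true := by decide +kernel

theorem relsF79 : allF (fixF rowF relW) 11850 150 = true := by decide +kernel

theorem relsF80 : allF (fixF rowF relW) 12000 150 = true := by decide +kernel

theorem relsF81 : allF (fixF rowF relW) 12150 150 = true := by decide +kernel

theorem relsF82 : allF (fixF rowF relW) 12300 150 = true := by decide +kernel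

theorem relsF83 : allF (fixF rowF relW) 12450 150 = true := by decide +kernel

theorem relsB5 (c : ℕ) (h0 : 10500 ≤ c) (h1 : c < 12600) : fixF rowF relW c = true := by
  by_cases h70 : c < 10650
  · exact allF_spec _ _ _ relsF70 c (by omega) (by omega)
  by_cases h71 : c < 10800
  · exact allF_spec _ _ _ relsF71 c (by omega) (by omega)
  by_cases h72 : c < 10950
  · exact allF_spec _ _ _ relsF72 c (by omega) (by omega)
  by_cases h73 : c < 11100
  · exact allF_spec _ _ _ relsF73 c (by omega) (by omega)
  by_cases h74 : c < 11250
  · exact allF_spec _ _ _ relsF74 c (by omega) (by omega)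
  by_cases h75 : c < 11400
  · exact allF_spec _ _ _ relsF75 c (by omega) (by omega)
  by_cases h76 : c < 11550
  · exact allF_spec _ _ _ relsF76 c (by omega) (by omega)
  by_cases h77 : c < 11700
  · exact allF_spec _ _ _ relsF77 c (by omega) (by omega)
  by_cases h78 : c < 11850
  · exact allF_spec _ _ _ relsF78 c (by omega) (by omega)
  by_cases h79 : c < 12000
  · exact allF_spec _ _ _ relsF79 c (by omega) (by omega)
  by_cases h80 : c < 12150
  · exact allF_spec _ _ _ relsF80 c (by omega) (by omega)
  by_cases h81 : c < 12300
  · exact allF_spec _ _ _ relsF81 c (by omega) (by omega)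
  by_cases h82 : c < 12450
  · exact allF_spec _ _ _ relsF82 c (by omega) (by omega)
  by_cases h83 : c < 12600
  · exact allF_spec _ _ _ relsF83 c (by omega) (by omega)
  omega

end H29.CosetCert.SuzUData
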