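import Cfsg.Agent.H29.CosetCert.SuzU.RelsBase

/-! Relator checks for SuzU, produced outside Lean and checked here. -/

set_option autoImplicit false
set_option maxRecDepth 16000
set_option Elab.async false

namespace H29.CosetCert.SuzUData

open H29.CosetCert

theorem relsF84 : allF (fixF rowF relW) 12600 150 = true := by decide +kernel

theorem relsF85 : allF (fixF rowF relW) 12750 150 = true := by decide +kernel

theorem relsF86 : allF (fixF rowF relW) 12900 150 = true := by decide +kernel

theorem relsF87 : allF (fixF rowF relW) 13050 150 = true := by decide +kernel

theorem relsF88 : allF (fixF rowF relW) 13200 150 = true := by decide +kernel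

theorem relsF89 : allF (fixF rowF relW) 13350 150 = true := by decide +kernel

theorem relsF90 : allF (fixF rowF relW) 13500 150 = true := by decide +kernel

theorem relsF91 : allF (fixF rowF relW) 13650 150 = true := by decide +kernel

theorem relsF92 : allF (fixF rowF relW) 13800 150 = true := by decide +kernel

theorem relsF93 : allF (fixF rowF relW) 13950 150 = true := by decide +kernel

theorem relsF94 : allF (fixF rowF relW) 14100 150 = true := by decide +kernel

theorem relsF95 : allF (fixF rowF relW) 14250 150 = true := by decide +kernel

theorem relsF96 : allF (fixF rowF relW) 14400 150 = true := by decide +kernel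

theorem relsF97 : allF (fixF rowF relW) 14550 150 = true := by decide +kernel

theorem relsB6 (c : ℕ) (h0 : 12600 ≤ c) (h1 : c < 14700) : fixF rowF relW c = true := by
  by_cases h84 : c < 12750
  · exact allF_spec _ _ _ relsF84 c (by omega) (by omega)
  by_cases h85 : c < 12900
  · exact allF_spec _ _ _ relsF85 c (by omega) (by omega)
  by_cases h86 : c < 13050
  · exact allF_spec _ _ _ relsF86 c (by omega) (by omega)
  by_cases h87 : c < 13200
  · exact allF_spec _ _ _ relsF87 c (by omega) (by omega)
  by_cases h88 : c < 13350
  · exact allF_spec _ _ _ relsF88 c (by omega) (by omega)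
  by_cases h89 : c < 13500
  · exact allF_spec _ _ _ relsF89 c (by omega) (by omega)
  by_cases h90 : c < 13650
  · exact allF_spec _ _ _ relsF90 c (by omega) (by omega)
  by_cases h91 : c < 13800
  · exact allF_spec _ _ _ relsF91 c (by omega) (by omega)
  by_cases h92 : c < 13950
  · exact allF_spec _ _ _ relsF92 c (by omega) (by omega)
  by_cases h93 : c < 14100
  · exact allF_spec _ _ _ relsF93 c (by omega) (by omega)
  by_cases h94 : c < 14250
  · exact allF_spec _ _ _ relsF94 c (by omega) (by omega)
  by_cases h95 : c < 14400
  · exact allF_spec _ _ _ relsF95 c (by omega) (by omega)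
  by_cases h96 : c < 14550
  · exact allF_spec _ _ _ relsF96 c (by omega) (by omega)
  by_cases h97 : c < 14700
  · exact allF_spec _ _ _ relsF97 c (by omega) (by omega)
  omega

end H29.CosetCert.SuzUData
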