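import Cfsg.Agent.H29.CosetCert.SuzU.Rels0
import Cfsg.Agent.H29.CosetCert.SuzU.Rels1
import Cfsg.Agent.H29.CosetCert.SuzU.Rels2
import Cfsg.Agent.H29.CosetCert.SuzU.Rels3
import Cfsg.Agent.H29.CosetCert.SuzU.Rels4
import Cfsg.Agent.H29.CosetCert.SuzU.Rels5
import Cfsg.Agent.H29.CosetCert.SuzU.Rels6
import Cfsg.Agent.H29.CosetCert.SuzU.Rels7
import Cfsg.Agent.H29.CosetCert.SuzU.Rels8
import Cfsg.Agent.H29.CosetCert.SuzU.Rels9
import Cfsg.Agent.H29.CosetCert.SuzU.Rels10

/-! Relator checks for SuzU, produced outside Lean and checked here. -/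

set_option autoImplicit false
set_option maxRecDepth 16000
set_option Elab.async false

namespace H29.CosetCert.SuzUData

open H29.CosetCert

theorem rels_ok (c i : ℕ) (hc : c < 22880) (hi : i < 33) : runR T (R.getD i []) c = c := by
  by_cases h0 : c < 2100
  · exact rels_of c i hi (relsB0 c (by omega) (by omega))
  by_cases h1 : c < 4200
  · exact rels_of c i hi (relsB1 c (by omega) (by omega))
  by_cases h2 : c < 6300
  · exact rels_of c i hi (relsB2 c (by omega) (by omega))
  by_cases h3 : c < 8400
  · exact rels_of c i hi (relsB3 c (by omega) (by omega))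
  by_cases h4 : c < 10500
  · exact rels_of c i hi (relsB4 c (by omega) (by omega))
  by_cases h5 : c < 12600
  · exact rels_of c i hi (relsB5 c (by omega) (by omega))
  by_cases h6 : c < 14700
  · exact rels_of c i hi (relsB6 c (by omega) (by omega))
  by_cases h7 : c < 16800
  · exact rels_of c i hi (relsB7 c (by omega) (by omega))
  by_cases h8 : c < 18900
  · exact rels_of c i hi (relsB8 c (by omega) (by omega))
  by_cases h9 : c < 21000
  · exact rels_of c i hi (relsB9 c (by omega) (by omega))
  by_cases h10 : c < 22880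
  · exact rels_of c i hi (relsB10 c (by omega) (by omega))
  omega

end H29.CosetCert.SuzUData
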