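import Cfsg.Agent.H29.CosetCert.Main
import Cfsg.Agent.H29.CosetCert.Cox
import Cfsg.Agent.H29.CosetCert.SuzU.Deds
import Cfsg.Agent.H29.CosetCert.SuzU.Table
import Cfsg.Agent.H29.CosetCert.SuzU.Rels
import Cfsg.Agent.H29.CosetCert.SuzU.Closed
import Cfsg.Agent.H29.CosetCert.SuzU.Inv
import Cfsg.Prelude.Def_Spor_Suz

/-! The coset enumeration certificate for the presented group SuzU. -/

set_option autoImplicit false
set_option maxRecDepth 4000

namespace H29.CosetCert.SuzUCert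

open Cfsg.Spor H29.CosetCert

/-- The generators in order. -/
abbrev L : List Cfsg.Spor.Suz.Gen := [.a, .b, .c, .d, .e, .f, .g]

theorem L_all (x : Cfsg.Spor.Suz.Gen) : x ∈ L := by cases x <;> decide

theorem L_nodes : ∀ x ∈ L, x ∈ coxNodes Cfsg.Spor.Suz.edges := by intro x _; cases x <;> decide

/-- The numbered generators. -/
noncomputable abbrev g : ℕ → Cfsg.Spor.Suz := genAt Cfsg.Spor.Suz.edges Cfsg.Spor.Suz.extra L

/-- The further relators as words. -/
def E : List (List ℕ) := [[0, 3, 2, 3, 2, 3, 2, 3, 2], [0, 6, 5, 6, 5], [0, 1, 2, 5, 0, 1, 2, 5, 0, 1, 2, 5, 0, 1, 2, 5, 0, 1, 2, 5], [1, 5, 6, 1, 5, 6, 1, 5, 6, 1, 5, 6, 1, 5, 6], [1, 2, 3, 2, 3, 1, 2, 3, 2, 3, 1, 2, 3, 2, 3, 1, 2, 3, 2, 3, 1, 2, 3, 2, 3, 4, 1, 2, 3, 2, 3, 1, 2, 3, 2, 3, 1, 2, 3, 2, 3, 1, 2, 3, 2, 3, 1, 2, 3, 2, 3, 4, 1, 2, 3, 2, 3, 1, 2, 3, 2, 3, 1, 2, 3, 2, 3, 1, 2, 3, 2, 3, 1, 2, 3, 2, 3, 4]]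

theorem of_inv (x : Cfsg.Spor.Suz.Gen) : (PresentedGroup.of x : Cfsg.Spor.Suz)⁻¹ = PresentedGroup.of x := by
  rw [← genAt_idx Cfsg.Spor.Suz.edges Cfsg.Spor.Suz.extra L L_all x]
  exact inv_eq_of_mul_eq_one_right (genAt_sq _ _ L L_nodes _)

theorem mk_of (x : Cfsg.Spor.Suz.Gen) :
    PresentedGroup.mk (coxRelators Cfsg.Spor.Suz.edges ∪ {r | r ∈ Cfsg.Spor.Suz.extra}) (FreeGroup.of x) =
      (PresentedGroup.of x : Cfsg.Spor.Suz) := rfl

theorem E_gen : ∀ e ∈ E, (e.map g).prod = 1 := by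
  obtain ⟨π, v, hπ, hv, heq, one⟩ : ∃ (π : FreeGroup Cfsg.Spor.Suz.Gen →* Cfsg.Spor.Suz) (v : Cfsg.Spor.Suz.Gen → Cfsg.Spor.Suz),
      (∀ x, π (FreeGroup.of x) = v x) ∧ (∀ x, (v x)⁻¹ = v x) ∧
      v = (fun x => PresentedGroup.of x) ∧ ∀ r ∈ Cfsg.Spor.Suz.extra, π r = 1 :=
    ⟨PresentedGroup.mk _, _, fun _ => rfl, of_inv, rfl,
      fun r hr => PresentedGroup.one_of_mem (Or.inr hr)⟩
  simp only [Cfsg.Spor.Suz.extra, Cfsg.Spor.Suz.a, Cfsg.Spor.Suz.b, Cfsg.Spor.Suz.c, Cfsg.Spor.Suz.d, Cfsg.Spor.Suz.e, Cfsg.Spor.Suz.f, Cfsg.Spor.Suz.g, List.forall_mem_cons, List.not_mem_nil, false_implies,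
    implies_true, and_true, map_mul, map_pow, map_inv, hπ, mul_inv_rev, ← inv_pow, hv, pow_succ,
    pow_zero, one_mul, mul_assoc] at one
  simp only [E, List.forall_mem_cons, List.not_mem_nil, false_implies, implies_true, and_true]
  subst heq
  simpa [g, genAt, mul_assoc, List.getD_eq_getElem?_getD] using one

theorem T_high (x : ℕ) (hx : 7 ≤ x) (c : ℕ) : SuzUData.T x c = c := by
  have : Nat.blt x 7 = false := by rw [Bool.eq_false_iff, ne_eq, Nat.blt_eq]; omega
  simp [SuzUData.T, this]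

theorem T_all (x : ℕ) : invOK 22880 (SuzUData.T x) = true := invOK_all SuzUData.T_inv T_high x

/-- The permutations of the table. -/
noncomputable def P (x : ℕ) : Equiv.Perm (Fin 22880) := permOf 22880 (SuzUData.T x)

theorem P_inv (x : ℕ) : (P x)⁻¹ = P x := inv_eq_of_mul_eq_one_right (permOf_mul_self _)

theorem E_perm : ∀ e ∈ E, (e.map P).prod = 1 := by
  intro e he
  have hc : E.all (fun e => (List.range 33).any fun i => SuzUData.R.getD i [] == e) = true := by
    decide +kernel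
  have h := List.all_eq_true.1 hc e he
  simp only [List.any_eq_true, List.mem_range, beq_iff_eq] at h
  obtain ⟨i, hi, rfl⟩ := h
  exact permWord_eq_one T_all SuzUData.rels_ok hi

/-- The action on the table. -/
noncomputable def ρ : Cfsg.Spor.Suz →* Equiv.Perm (Fin 22880) :=
  PresentedGroup.toGroup (f := fun x => P (L.idxOf x)) (by
    intro r hr
    rcases hr with hr | hr
    · exact coxRelators_perm _ L L_all T_all SuzUData.rels_ok (by decide +kernel) r hr
    · have key := E_perm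
      simp only [E, List.forall_mem_cons, List.not_mem_nil, false_implies, implies_true, and_true,
        List.map_cons, List.map_nil, List.prod_cons, List.prod_nil, mul_one] at key
      revert r
      simp only [Cfsg.Spor.Suz.extra, Cfsg.Spor.Suz.a, Cfsg.Spor.Suz.b, Cfsg.Spor.Suz.c, Cfsg.Spor.Suz.d, Cfsg.Spor.Suz.e, Cfsg.Spor.Suz.f, Cfsg.Spor.Suz.g, Set.mem_setOf_eq, List.forall_mem_cons, List.not_mem_nil,
        false_implies, implies_true, and_true, map_mul, map_pow, map_inv, FreeGroup.lift_apply_of,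
        mul_inv_rev, ← inv_pow, P_inv, pow_succ, pow_zero, one_mul, mul_assoc]
      exact key)

theorem ρ_g (x : ℕ) : ρ (g x) = permOf 22880 (SuzUData.T x) := by
  by_cases hx : x < 7
  · have : g x = PresentedGroup.of (L[x]'(by simpa using hx)) := by
      interval_cases x <;> rfl
    rw [this, ρ, PresentedGroup.toGroup.of]
    interval_cases x <;> rfl
  · rw [show g x = 1 from genAt_high _ _ L x (by simpa using (by omega : 7 ≤ x)), map_one]
    apply Equiv.ext
    intro c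
    apply Fin.ext
    rw [permOf_val (T_all x), T_high x (by omega)]
    rfl

/-- The subgroup of the statement. -/
noncomputable abbrev H : Subgroup Cfsg.Spor.Suz :=
  Subgroup.closure {e | e ∈ SuzUData.S.map fun r => (r.reverse.map g).prod}

/-- The certificate. -/
noncomputable def cert : Cert Cfsg.Spor.Suz H where
  g := g
  ng := 7
  n := 22880
  R := SuzUData.R
  S := SuzUData.S
  F := SuzUData.F
  nd := SuzUData.nd
  N := SuzUData.N
  T := SuzUData.T
  nodeOf := SuzUData.nodeOf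
  edge := SuzUData.edge
  par := SuzUData.par
  ρ := ρ
  g_high := fun x hx => genAt_high _ _ L x (by simpa using hx)
  g_sq := genAt_sq _ _ L L_nodes
  g_gen := genAt_gen _ _ L L_all
  ng_le := by norm_num
  n_pos := by norm_num
  T_high := T_high
  T_inv := SuzUData.T_inv
  ρ_g := ρ_g
  rels := rels_of_classified _ _ L L_all L_nodes (E := E) (by decide +kernel) E_gen
  sub := rfl
  sub_fix := SuzUData.sub_fix
  defs := SuzUData.defs_ok
  deds := SuzUData.deds
  node0 := SuzUData.node0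
  closed := SuzUData.closed
  connected := SuzUData.connected

end H29.CosetCert.SuzUCert
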