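import Cfsg.Agent.H29.CosetCert.SuzU.Table

/-! Certificate data for SuzU, produced by a coset enumeration outside Lean and checked here. -/

set_option autoImplicit false
set_option maxRecDepth 16000
set_option Elab.async false

namespace H29.CosetCert.SuzUData

open H29.CosetCert

theorem closed66_ok : allIn (fun c => allIn (fun x => Nat.blt (edge x c / 2) N && let' (F (edge x c / 2)) == x && oStart F (edge x c) == nodeOf c && oEnd F (edge x c) == nodeOf (T x c)) 0 7) 19800 300 = true := by decide +kernel

theorem closed67_ok : allIn (fun c => allIn (fun x => Nat.blt (edge x c / 2) N && let' (F (edge x c / 2)) == x && oStart F (edge x c) == nodeOf c && oEnd F (edge x c) == nodeOf (T x c)) 0 7) 20100 300 = true := by decide +kernel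

theorem closed68_ok : allIn (fun c => allIn (fun x => Nat.blt (edge x c / 2) N && let' (F (edge x c / 2)) == x && oStart F (edge x c) == nodeOf c && oEnd F (edge x c) == nodeOf (T x c)) 0 7) 20400 300 = true := by decide +kernel

theorem closed69_ok : allIn (fun c => allIn (fun x => Nat.blt (edge x c / 2) N && let' (F (edge x c / 2)) == x && oStart F (edge x c) == nodeOf c && oEnd F (edge x c) == nodeOf (T x c)) 0 7) 20700 300 = true := by decide +kernel

theorem closed70_ok : allIn (fun c => allIn (fun x => Nat.blt (edge x c / 2) N && let' (F (edge x c / 2)) == x && oStart F (edge x c) == nodeOf c && oEnd F (edge x c) == nodeOf (T x c)) 0 7) 21000 300 = true := by decide +kernel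

theorem closed71_ok : allIn (fun c => allIn (fun x => Nat.blt (edge x c / 2) N && let' (F (edge x c / 2)) == x && oStart F (edge x c) == nodeOf c && oEnd F (edge x c) == nodeOf (T x c)) 0 7) 21300 300 = true := by decide +kernel

end H29.CosetCert.SuzUData
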