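import Cfsg.Agent.H29.CosetCert.SuzU.Table

/-! Certificate data for SuzU, produced by a coset enumeration outside Lean and checked here. -/

set_option autoImplicit false
set_option maxRecDepth 16000
set_option Elab.async false

namespace H29.CosetCert.SuzUData

open H29.CosetCert

theorem inv0_0 : allIn (fun c => Nat.blt (T 0 c) 22880 && T 0 (T 0 c) == c) 0 3600 = true := by decide +kernel

theorem inv0_1 : allIn (fun c => Nat.blt (T 0 c) 22880 && T 0 (T 0 c) == c) 3600 3600 = true := by decide +kernel

theorem inv0_2 : allIn (fun c => Nat.blt (T 0 c) 22880 && T 0 (T 0 c) == c) 7200 3600 = true := by decide +kernel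

theorem inv0_3 : allIn (fun c => Nat.blt (T 0 c) 22880 && T 0 (T 0 c) == c) 10800 3600 = true := by decide +kernel

theorem inv0_4 : allIn (fun c => Nat.blt (T 0 c) 22880 && T 0 (T 0 c) == c) 14400 3600 = true := by decide +kernel

theorem inv0_5 : allIn (fun c => Nat.blt (T 0 c) 22880 && T 0 (T 0 c) == c) 18000 3600 = true := by decide +kernel

theorem inv0_6 : allIn (fun c => Nat.blt (T 0 c) 22880 && T 0 (T 0 c) == c) 21600 1280 = true := by decide +kernel

theorem inv3_0 : allIn (fun c => Nat.blt (T 3 c) 22880 && T 3 (T 3 c) == c) 0 3600 = true := by decide +kernel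

theorem inv3_1 : allIn (fun c => Nat.blt (T 3 c) 22880 && T 3 (T 3 c) == c) 3600 3600 = true := by decide +kernel

theorem inv3_2 : allIn (fun c => Nat.blt (T 3 c) 22880 && T 3 (T 3 c) == c) 7200 3600 = true := by decide +kernel

theorem inv3_3 : allIn (fun c => Nat.blt (T 3 c) 22880 && T 3 (T 3 c) == c) 10800 3600 = true := by decide +kernel

theorem inv3_4 : allIn (fun c => Nat.blt (T 3 c) 22880 && T 3 (T 3 c) == c) 14400 3600 = true := by decide +kernel

theorem inv3_5 : allIn (fun c => Nat.blt (T 3 c) 22880 && T 3 (T 3 c) == c) 18000 3600 = true := by decide +kernel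

theorem inv3_6 : allIn (fun c => Nat.blt (T 3 c) 22880 && T 3 (T 3 c) == c) 21600 1280 = true := by decide +kernel

theorem inv6_0 : allIn (fun c => Nat.blt (T 6 c) 22880 && T 6 (T 6 c) == c) 0 3600 = true := by decide +kernel

theorem inv6_1 : allIn (fun c => Nat.blt (T 6 c) 22880 && T 6 (T 6 c) == c) 3600 3600 = true := by decide +kernel

theorem inv6_2 : allIn (fun c => Nat.blt (T 6 c) 22880 && T 6 (T 6 c) == c) 7200 3600 = true := by decide +kernel

theorem inv6_3 : allIn (fun c => Nat.blt (T 6 c) 22880 && T 6 (T 6 c) == c) 10800 3600 = true := by decide +kernel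

theorem inv6_4 : allIn (fun c => Nat.blt (T 6 c) 22880 && T 6 (T 6 c) == c) 14400 3600 = true := by decide +kernel

theorem inv6_5 : allIn (fun c => Nat.blt (T 6 c) 22880 && T 6 (T 6 c) == c) 18000 3600 = true := by decide +kernel

theorem inv6_6 : allIn (fun c => Nat.blt (T 6 c) 22880 && T 6 (T 6 c) == c) 21600 1280 = true := by decide +kernel

end H29.CosetCert.SuzUData
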