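import Cfsg.Agent.H29.CosetCert.SuzU.Table

/-! Certificate data for SuzU, produced by a coset enumeration outside Lean and checked here. -/

set_option autoImplicit false
set_option maxRecDepth 16000
set_option Elab.async false

namespace H29.CosetCert.SuzUData

open H29.CosetCert

theorem inv1_0 : allIn (fun c => Nat.blt (T 1 c) 22880 && T 1 (T 1 c) == c) 0 3600 = true := by decide +kernel

theorem inv1_1 : allIn (fun c => Nat.blt (T 1 c) 22880 && T 1 (T 1 c) == c) 3600 3600 = true := by decide +kernel

theorem inv1_2 : allIn (fun c => Nat.blt (T 1 c) 22880 && T 1 (T 1 c) == c) 7200 3600 = true := by decide +kernel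

theorem inv1_3 : allIn (fun c => Nat.blt (T 1 c) 22880 && T 1 (T 1 c) == c) 10800 3600 = true := by decide +kernel

theorem inv1_4 : allIn (fun c => Nat.blt (T 1 c) 22880 && T 1 (T 1 c) == c) 14400 3600 = true := by decide +kernel

theorem inv1_5 : allIn (fun c => Nat.blt (T 1 c) 22880 && T 1 (T 1 c) == c) 18000 3600 = true := by decide +kernel

theorem inv1_6 : allIn (fun c => Nat.blt (T 1 c) 22880 && T 1 (T 1 c) == c) 21600 1280 = true := by decide +kernel

theorem inv4_0 : allIn (fun c => Nat.blt (T 4 c) 22880 && T 4 (T 4 c) == c) 0 3600 = true := by decide +kernel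

theorem inv4_1 : allIn (fun c => Nat.blt (T 4 c) 22880 && T 4 (T 4 c) == c) 3600 3600 = true := by decide +kernel

theorem inv4_2 : allIn (fun c => Nat.blt (T 4 c) 22880 && T 4 (T 4 c) == c) 7200 3600 = true := by decide +kernel

theorem inv4_3 : allIn (fun c => Nat.blt (T 4 c) 22880 && T 4 (T 4 c) == c) 10800 3600 = true := by decide +kernel

theorem inv4_4 : allIn (fun c => Nat.blt (T 4 c) 22880 && T 4 (T 4 c) == c) 14400 3600 = true := by decide +kernel

theorem inv4_5 : allIn (fun c => Nat.blt (T 4 c) 22880 && T 4 (T 4 c) == c) 18000 3600 = true := by decide +kernel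

theorem inv4_6 : allIn (fun c => Nat.blt (T 4 c) 22880 && T 4 (T 4 c) == c) 21600 1280 = true := by decide +kernel

end H29.CosetCert.SuzUData
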