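import Cfsg.Agent.H29.CosetCert.SuzU.Table

/-! Certificate data for SuzU, produced by a coset enumeration outside Lean and checked here. -/

set_option autoImplicit false
set_option maxRecDepth 16000
set_option Elab.async false

namespace H29.CosetCert.SuzUData

open H29.CosetCert

theorem inv2_0 : allIn (fun c => Nat.blt (T 2 c) 22880 && T 2 (T 2 c) == c) 0 3600 = true := by decide +kernel

theorem inv2_1 : allIn (fun c => Nat.blt (T 2 c) 22880 && T 2 (T 2 c) == c) 3600 3600 = true := by decide +kernel

theorem inv2_2 : allIn (fun c => Nat.blt (T 2 c) 22880 && T 2 (T 2 c) == c) 7200 3600 = true := by decide +kernel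

theorem inv2_3 : allIn (fun c => Nat.blt (T 2 c) 22880 && T 2 (T 2 c) == c) 10800 3600 = true := by decide +kernel

theorem inv2_4 : allIn (fun c => Nat.blt (T 2 c) 22880 && T 2 (T 2 c) == c) 14400 3600 = true := by decide +kernel

theorem inv2_5 : allIn (fun c => Nat.blt (T 2 c) 22880 && T 2 (T 2 c) == c) 18000 3600 = true := by decide +kernel

theorem inv2_6 : allIn (fun c => Nat.blt (T 2 c) 22880 && T 2 (T 2 c) == c) 21600 1280 = true := by decide +kernel

theorem inv5_0 : allIn (fun c => Nat.blt (T 5 c) 22880 && T 5 (T 5 c) == c) 0 3600 = true := by decide +kernel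

theorem inv5_1 : allIn (fun c => Nat.blt (T 5 c) 22880 && T 5 (T 5 c) == c) 3600 3600 = true := by decide +kernel

theorem inv5_2 : allIn (fun c => Nat.blt (T 5 c) 22880 && T 5 (T 5 c) == c) 7200 3600 = true := by decide +kernel

theorem inv5_3 : allIn (fun c => Nat.blt (T 5 c) 22880 && T 5 (T 5 c) == c) 10800 3600 = true := by decide +kernel

theorem inv5_4 : allIn (fun c => Nat.blt (T 5 c) 22880 && T 5 (T 5 c) == c) 14400 3600 = true := by decide +kernel

theorem inv5_5 : allIn (fun c => Nat.blt (T 5 c) 22880 && T 5 (T 5 c) == c) 18000 3600 = true := by decide +kernel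

theorem inv5_6 : allIn (fun c => Nat.blt (T 5 c) 22880 && T 5 (T 5 c) == c) 21600 1280 = true := by decide +kernel

end H29.CosetCert.SuzUData
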