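import Cfsg.Agent.H29.CosetCert.SuzU.Table
import Cfsg.Agent.H29.CosetCert.Fast

/-! Relator checks for SuzU, produced outside Lean and checked here. -/

set_option autoImplicit false
set_option maxRecDepth 16000
set_option Elab.async false

namespace H29.CosetCert.SuzUData

open H29.CosetCert

/-- Rows by number. -/
noncomputable def rowF (x : ℕ) : Tr :=
  (Nat.rec (motive := fun _ => Tr) row0 (fun a0 _ => (Nat.rec (motive := fun _ => Tr) row1 (fun a1 _ => (Nat.rec (motive := fun _ => Tr) row2 (fun a2 _ => (Nat.rec (motive := fun _ => Tr) row3 (fun a3 _ => (Nat.rec (motive := fun _ => Tr) row4 (fun a4 _ => (Nat.rec (motive := fun _ => Tr) row5 (fun a5 _ => row6) a4)) a3)) a2)) a1)) a0)) x)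

/-- The words to check. -/
noncomputable def relW : List (List ℕ) :=
  [[0, 1, 0, 1, 0, 1, 0, 1, 0, 1],
  [0, 2, 0, 2],
  [0, 3, 0, 3],
  [0, 4, 0, 4],
  [0, 5, 0, 5],
  [0, 6, 0, 6],
  [1, 2, 1, 2, 1, 2],
  [1, 3, 1, 3],
  [1, 4, 1, 4],
  [1, 5, 1, 5, 1, 5],
  [1, 6, 1, 6, 1, 6],
  [2, 3, 2, 3, 2, 3, 2, 3, 2, 3, 2, 3, 2, 3, 2, 3],
  [2, 4, 2, 4],
  [2, 5, 2, 5],
  [2, 6, 2, 6],
  [3, 4, 3, 4, 3, 4],
  [3, 5, 3, 5],
  [3, 6, 3, 6],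
  [4, 5, 4, 5],
  [4, 6, 4, 6],
  [5, 6, 5, 6, 5, 6, 5, 6],
  [0, 3, 2, 3, 2, 3, 2, 3, 2],
  [0, 6, 5, 6, 5],
  [0, 1, 2, 5, 0, 1, 2, 5, 0, 1, 2, 5, 0, 1, 2, 5, 0, 1, 2, 5],
  [1, 5, 6, 1, 5, 6, 1, 5, 6, 1, 5, 6, 1, 5, 6],
  [1, 2, 3, 2, 3, 1, 2, 3, 2, 3, 1, 2, 3, 2, 3, 1, 2, 3, 2, 3, 1, 2, 3, 2, 3, 4, 1, 2, 3, 2, 3, 1, 2, 3, 2, 3, 1, 2, 3, 2, 3, 1, 2, 3, 2, 3, 1, 2, 3, 2, 3, 4, 1, 2, 3, 2, 3, 1, 2, 3, 2, 3, 1, 2, 3, 2, 3, 1, 2, 3, 2, 3, 1, 2, 3, 2, 3, 4],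
  [0, 0],
  [1, 1],
  [2, 2],
  [3, 3],
  [4, 4],
  [5, 5],
  [6, 6]]

theorem rowF_eq : ∀ x, x < 7 → ∀ c, pick16 (rowF x) c = T x c := by
  intro x hx c
  interval_cases x <;> rfl

theorem relW_mem : allIn (fun i => relW.elem (R.getD i [])) 0 33 = true := by decide +kernel

theorem relW_lt : relW.all (fun w => w.all fun x => Nat.blt x 7) = true := by decide +kernel

theorem rels_of (c i : ℕ) (hi : i < 33) (h : fixF rowF relW c = true) :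
    runR T (R.getD i []) c = c := by
  have hmem : R.getD i [] ∈ relW :=
    List.elem_iff.1 ((allIn_iff _ _ _).1 relW_mem i (Nat.zero_le _) (by omega))
  have hlt := List.all_eq_true.1 relW_lt _ hmem
  rw [← runF_eq rowF_eq _ (fun x hx => Nat.blt_eq.mp (List.all_eq_true.1 hlt x hx))]
  exact fixF_spec rowF relW c h _ hmem

end H29.CosetCert.SuzUData
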